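import Mathlib
import Cfsg.Agent.Transfer.Tate
import Cfsg.Agent.Transfer.Focal
import Cfsg.Agent.Transfer.FusionInduction

/-!
The hyperfocal subgroup theorem, in a form with a retraction, and its consequence for subgroups controlling fusion.
-/
set_option autoImplicit false

open scoped commutatorElement IsMulCommutative

universe u

namespace CfsgLib.Transfer

variable {p : ℕ} {G : Type u} [Group G] [Finite G] [hp : Fact p.Prime]

attribute [local instance] pResidual_normal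

/-- `P ∩ O^p(G)` lies in a subgroup `H` normalised by `P` if every homomorphism of `P` into an abelian group
which is invariant under the fusions by elements of `O^p(G)` moving elements inside their `H`-cosets is invariant
under all fusion. -/
theorem inf_pResidual_le (P : Sylow p G) (H : Subgroup G) (hHP : (P : Subgroup G) ≤ Subgroup.normalizer (H : Set G))
    (hA : ∀ (A : Type u) [CommGroup A] (δ : (P : Subgroup G) →* A),
      (∀ r ∈ Cfsg.pResidual p G, ∀ y z : (P : Subgroup G), r * y * r⁻¹ = z → (y : G)⁻¹ * z ∈ H → δ y = δ z) →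
      ∀ (g : G) (x y : (P : Subgroup G)), g * x * g⁻¹ = y → δ x = δ y) :
    (P : Subgroup G) ⊓ Cfsg.pResidual p G ≤ H := by
  set R := Cfsg.pResidual p G with hR
  set D : Subgroup (P : Subgroup G) := R.subgroupOf P with hD
  suffices hle : D ≤ H.subgroupOf P from fun x hx => hle (x := ⟨x, hx.1⟩) hx.2
  by_contra hne
  have hDn : D.Normal := Subgroup.normal_subgroupOf
  have hHn : (H.subgroupOf P).Normal := Subgroup.normal_subgroupOf_of_le_normalizer hHP
  have := P.isPGroup'.isNilpotent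
  obtain ⟨T, ⟨hTn, hTD, hHT⟩, hTmax⟩ := Set.Finite.exists_maximal
    (s := {T : Subgroup (P : Subgroup G) | T.Normal ∧ T < D ∧ H.subgroupOf P ⊓ D ≤ T}) (Set.toFinite _)
    ⟨H.subgroupOf P ⊓ D, inferInstance,
      lt_of_le_of_ne inf_le_right fun h => hne (h.ge.trans inf_le_left), le_rfl⟩
  let mk := QuotientGroup.mk' T
  let σ : (P : Subgroup G) ⧸ T →* G ⧸ R :=
    QuotientGroup.map T R (P : Subgroup G).subtype (fun x hx => hTD.le hx)
  have hker : σ.ker = D.map mk := by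
    ext x
    obtain ⟨y, rfl⟩ := QuotientGroup.mk'_surjective T x
    constructor
    · intro hx
      exact ⟨y, (QuotientGroup.eq_one_iff (N := R) (y : G)).mp hx, rfl⟩
    · rintro ⟨z, hz, hzy⟩
      rw [← hzy, MonoidHom.mem_ker]
      exact (QuotientGroup.eq_one_iff (N := R) (z : G)).mpr hz
  have hcomm : ⁅D, (⊤ : Subgroup (P : Subgroup G))⁆ ≤ T := by
    have hle : ⁅D, (⊤ : Subgroup (P : Subgroup G))⁆ ⊔ T ≤ D := sup_le (Subgroup.commutator_le_left _ _) hTD.le
    rcases hle.eq_or_lt with he | hlt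
    · exfalso
      have h1 : D.map mk ≤ ⁅D.map mk, (⊤ : Subgroup ((P : Subgroup G) ⧸ T))⁆ := by
        conv_lhs => rw [← he, Subgroup.map_sup, QuotientGroup.map_mk'_self, sup_bot_eq, Subgroup.map_commutator]
        exact Subgroup.commutator_mono le_rfl le_top
      have h2 := eq_bot_of_le_commutator_top h1
      rw [Subgroup.map_eq_bot_iff, QuotientGroup.ker_mk'] at h2
      exact hTD.not_ge h2
    · exact le_sup_left.trans (hTmax ⟨inferInstance, hlt, hHT.trans le_sup_right⟩ le_sup_right)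
  have hcen : σ.ker ≤ Subgroup.center _ := by
    rw [hker]
    rintro _ ⟨d, hd, rfl⟩
    rw [Subgroup.mem_center_iff]
    intro x
    obtain ⟨y, rfl⟩ := QuotientGroup.mk'_surjective T x
    have h1 : mk ⁅d, y⁆ = 1 := (QuotientGroup.eq_one_iff _).mpr
      (hcomm (Subgroup.commutator_mem_commutator hd (Subgroup.mem_top y)))
    rw [map_commutatorElement, commutatorElement_eq_one_iff_mul_comm] at h1
    exact h1.symm
  have hsurj : ∀ g, ∃ u, σ u = QuotientGroup.mk' R g := by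
    intro g
    obtain ⟨r, hr, x, hx, rfl⟩ : ∃ r ∈ R, ∃ x ∈ (P : Subgroup G), r * x = g :=
      Subgroup.mem_sup_of_normal_left.mp (by rw [hR, pResidual_sup_sylow]; trivial)
    refine ⟨mk ⟨x, hx⟩, ?_⟩
    rw [map_mul, (QuotientGroup.eq_one_iff r).mpr hr |> fun h => (h : QuotientGroup.mk' R r = 1), one_mul]
    rfl
  obtain ⟨φ, hφ⟩ := exists_lift_of_sylow (p := p) σ hcen ((P.isPGroup'.to_quotient T).to_subgroup _)
    (QuotientGroup.mk' R) hsurj (P : Subgroup G) P.not_dvd_index mk (fun s => rfl)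
  have hφR : ∀ r ∈ R, φ r = 1 := fun r hr => pResidual_le_of_isPGroup_quotient φ.ker
    ((P.isPGroup'.to_quotient T).of_injective (QuotientGroup.kerLift φ) (QuotientGroup.kerLift_injective φ)) hr
  have : IsMulCommutative σ.ker :=
    ⟨⟨fun a b => Subtype.ext ((Subgroup.mem_center_iff.mp (hcen a.2) b).symm)⟩⟩
  have hd : ∀ y : (P : Subgroup G), mk y * (φ (y : G))⁻¹ ∈ σ.ker := fun y => by
    rw [MonoidHom.mem_ker, map_mul, map_inv, hφ, mul_inv_eq_one]; rfl
  let δ : (P : Subgroup G) →* σ.ker := MonoidHom.mk' (fun y => ⟨mk y * (φ (y : G))⁻¹, hd y⟩) fun a b =>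
    Subtype.ext (by
      have hc := Subgroup.mem_center_iff.mp (hcen (hd b)) (φ (a : G))⁻¹
      show mk (a * b) * (φ ((a * b : (P : Subgroup G)) : G))⁻¹ = mk a * (φ (a : G))⁻¹ * (mk b * (φ (b : G))⁻¹)
      rw [Subgroup.coe_mul, map_mul, map_mul, mul_inv_rev]
      calc mk a * mk b * ((φ (b : G))⁻¹ * (φ (a : G))⁻¹) = mk a * (mk b * (φ (b : G))⁻¹ * (φ (a : G))⁻¹) := by group
        _ = _ := by rw [← hc]; group)
  have hinv := hA σ.ker δ fun r hr y z hyz hH => by
    apply Subtype.ext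
    show mk y * (φ (y : G))⁻¹ = mk z * (φ (z : G))⁻¹
    have hφz : φ (z : G) = φ (y : G) := by rw [← hyz, map_mul, map_mul, map_inv, hφR r hr]; group
    have hmk : mk y = mk z := QuotientGroup.eq.mpr (hHT ⟨hH, by
      show (y : G)⁻¹ * z ∈ R
      have h1 := mul_mem ((inferInstance : R.Normal).conj_mem r hr (y : G)⁻¹) (inv_mem hr)
      rw [← hyz]
      simpa [mul_assoc] using h1⟩)
    rw [hφz, hmk]
  apply hTD.not_ge
  intro d hd'
  have h1 : (d : G) ∈ (P : Subgroup G).focalSubgroup := inf_pResidual_le_focal P ⟨d.2, hd'⟩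
  have h2 : (P : Subgroup G).focalSubgroup ≤ δ.ker.map (P : Subgroup G).subtype := by
    refine focalSubgroup_le_of_forall fun x hx g hg => ⟨⟨x, hx⟩ * (⟨_, hg⟩ : (P : Subgroup G))⁻¹, ?_, ?_⟩
    · rw [SetLike.mem_coe, MonoidHom.mem_ker, map_mul, map_inv, mul_inv_eq_one]
      exact hinv g ⟨x, hx⟩ ⟨_, hg⟩ rfl
    · show x * (g * x * g⁻¹)⁻¹ = _
      group
  obtain ⟨d', hd'', he⟩ := h2 h1
  obtain rfl : d' = d := Subtype.ext he
  have h3 : mk d' * (φ (d' : G))⁻¹ = 1 := congrArg Subtype.val (hd'' : δ d' = 1)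
  rw [hφR (d' : G) hd', inv_one, mul_one] at h3
  exact (QuotientGroup.eq_one_iff _).mp h3

/-- Hyperfocal subgroup theorem: `P ∩ O^p(G)` is generated by the `x⁻¹ x^n`, `n` a `p'`-element normalising a
subgroup of `P` containing `x`. -/
theorem inf_pResidual_le_of_local (P : Sylow p G) (H : Subgroup G)
    (hHP : (P : Subgroup G) ≤ Subgroup.normalizer (H : Set G))
    (h : ∀ D : Subgroup G, D ≤ (P : Subgroup G) → ∀ n ∈ Subgroup.normalizer (D : Set G),
      (orderOf n).Coprime p → ∀ x ∈ D, x⁻¹ * (n * x * n⁻¹) ∈ H) :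
    (P : Subgroup G) ⊓ Cfsg.pResidual p G ≤ H := by
  refine inf_pResidual_le P H hHP fun A _ δ hδ g x y hxy => ?_
  have key := fusion_induction P (rel := fun a b => ∀ (ha : a ∈ (P : Subgroup G)) (hb : b ∈ (P : Subgroup G)),
    δ ⟨a, ha⟩ = δ ⟨b, hb⟩) (fun a _ _ _ => rfl) (fun a _ b _ hab hb ha => (hab ha hb).symm)
    (fun a _ b hb c _ hab hbc ha hc => (hab ha hb).trans (hbc hb hc))
    (fun s hs a ha _ hb => by
      have he : (⟨s * a * s⁻¹, hb⟩ : (P : Subgroup G)) = ⟨s, hs⟩ * ⟨a, ha⟩ * ⟨s, hs⟩⁻¹ := rfl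
      rw [he, map_mul, map_mul, map_inv, mul_inv_cancel_comm])
    (fun D hD n hn hnp a haD ha hb => hδ n (mem_pResidual_of_coprime hnp) ⟨a, ha⟩ ⟨_, hb⟩ rfl
      (h D hD n hn hnp a haD))
    g x x.2 (hxy ▸ y.2) x.2 (hxy ▸ y.2)
  have he : (⟨g * x * g⁻¹, hxy ▸ y.2⟩ : (P : Subgroup G)) = y := Subtype.ext hxy
  rw [← he]
  exact key

/-- A subgroup containing `P` which controls fusion in `P` controls `P ∩ O^p`. -/
theorem inf_pResidual_eq_of_control (P : Sylow p G) (V : Subgroup G) (hPV : (P : Subgroup G) ≤ V)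
    (hc : ∀ x ∈ (P : Subgroup G), ∀ g : G, g * x * g⁻¹ ∈ (P : Subgroup G) → ∃ v ∈ V, v * x * v⁻¹ = g * x * g⁻¹) :
    (P : Subgroup G) ⊓ Cfsg.pResidual p G = (P : Subgroup G) ⊓ (Cfsg.pResidual p V).map V.subtype := by
  refine le_antisymm ?_ (inf_le_inf_left _ (map_pResidual_le V.subtype))
  refine inf_pResidual_le P _ (fun s hs => ?_) fun A _ δ hδ g x y hxy => ?_
  · refine Subgroup.inf_normalizer_le_normalizer_inf ⟨Subgroup.le_normalizer hs, ?_⟩
    exact Subgroup.le_normalizer_map V.subtype ⟨⟨s, hPV hs⟩, by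
      rw [Subgroup.normalizer_eq_top]; exact Subgroup.mem_top _, rfl⟩
  obtain ⟨v, hv, hve⟩ := hc x x.2 g (hxy ▸ y.2)
  let PV : Sylow p V := P.subtype hPV
  obtain ⟨r, hr, s, hs, hrs⟩ := Subgroup.mem_sup_of_normal_left.mp
    (show (⟨v, hv⟩ : V) ∈ Cfsg.pResidual p V ⊔ (PV : Subgroup V) by rw [pResidual_sup_sylow]; trivial)
  let s' : (P : Subgroup G) := ⟨(s : G), hs⟩
  let z : (P : Subgroup G) := s' * x * s'⁻¹
  have h1 : (r : G) * z * (r : G)⁻¹ = y := by
    have hv' : v = (r : G) * (s : G) := (congrArg Subtype.val hrs).symm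
    rw [← hxy, ← hve, hv']
    show (r : G) * ((s : G) * x * (s : G)⁻¹) * (r : G)⁻¹ = _
    group
  have h2 : δ x = δ z := by simp only [z, map_mul, map_inv, mul_inv_cancel_comm]
  refine h2.trans (hδ (r : G) (map_pResidual_le V.subtype ⟨r, hr, rfl⟩) z y h1
    (Subgroup.mem_inf.2 ⟨mul_mem (inv_mem (SetLike.coe_mem z)) (SetLike.coe_mem y), ?_⟩))
  have h3 := mul_mem ((inferInstance : (Cfsg.pResidual p V).Normal).conj_mem r hr ⟨z, hPV z.2⟩⁻¹) (inv_mem hr)
  refine ⟨_, h3, ?_⟩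
  rw [← h1]
  simp [mul_assoc]

end CfsgLib.Transfer
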