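import Mathlib
import Cfsg.Agent.Transfer.Focal

/-!
Focal series of a Hall subgroup and normal complements.
-/
set_option autoImplicit false

open scoped IsMulCommutative commutatorElement

namespace CfsgLib.Transfer

variable {G : Type*} [Group G]

theorem le_normalizer_focal {H K : Subgroup G} (h : H ≤ Subgroup.normalizer (K : Set G)) :
    H ≤ Subgroup.normalizer (K.focalSubgroup : Set G) := by
  have key : ∀ a ∈ H, ∀ z ∈ K.focalSubgroup, a * z * a⁻¹ ∈ K.focalSubgroup := by
    intro a ha z hz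
    have hK : ∀ y ∈ K, a * y * a⁻¹ ∈ K := fun y hy => (Subgroup.mem_normalizer_iff.1 (h ha) y).1 hy
    suffices K.focalSubgroup ≤ K.focalSubgroup.comap (MulAut.conj a).toMonoidHom from this hz
    refine focalSubgroup_le_of_forall fun x hx g hg => ?_
    show a * (x * (g * x⁻¹ * g⁻¹)) * a⁻¹ ∈ K.focalSubgroup
    have e1 : a * g * a⁻¹ * (a * x * a⁻¹) * (a * g * a⁻¹)⁻¹ = a * (g * x * g⁻¹) * a⁻¹ := by group
    have h1 := mem_focalSubgroup (g := a * g * a⁻¹) (hK x hx) (e1 ▸ hK _ hg)
    have e2 : a * x * a⁻¹ * (a * g * a⁻¹ * (a * x * a⁻¹)⁻¹ * (a * g * a⁻¹)⁻¹) =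
        a * (x * (g * x⁻¹ * g⁻¹)) * a⁻¹ := by group
    exact e2 ▸ h1
  intro a ha
  refine Subgroup.mem_normalizer_iff.2 fun z => ⟨key a ha z, fun hz => ?_⟩
  simpa [mul_assoc] using key a⁻¹ (inv_mem ha) _ hz

/-- `H ∩ G'` and a normal subgroup realising it, when the index of `H` is prime to `|H : H'|`. -/
theorem focal_eq_and_exists [Finite G] (H : Subgroup G) (h : Nat.Coprime H.index (⁅H, H⁆.relIndex H)) :
    H.focalSubgroup = commutator G ⊓ H ∧
      ∃ N : Subgroup G, N.Normal ∧ N ⊓ H = commutator G ⊓ H ∧ N ⊔ H = ⊤ := by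
  have hdvd : Nat.card (H ⧸ H.focalSubgroupOf) ∣ ⁅H, H⁆.relIndex H := by
    rw [Subgroup.relIndex, ← Subgroup.index_eq_card]
    refine Subgroup.index_dvd_of_le ?_
    intro x hx
    exact Subgroup.commutator_le_focalSubgroup H hx
  have hc : (Nat.card (H ⧸ H.focalSubgroupOf)).Coprime H.index := (h.coprime_dvd_right hdvd).symm
  have hker : H.transferFocal.ker ⊓ H = H.focalSubgroup := by
    refine le_antisymm ?_ ?_
    · rintro x ⟨hx, hxH⟩
      have h1 : H.transferFocal x = _ := Subgroup.transferFocal_eq_pow H ⟨x, hxH⟩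
      rw [MonoidHom.mem_ker.1 hx] at h1
      have h2 := (Nat.Coprime.pow_left_bijective hc).1 (h1.symm.trans (one_pow H.index).symm)
      rw [← Subgroup.map_focalSubgroupOf H]
      exact ⟨⟨x, hxH⟩, (QuotientGroup.eq_one_iff _).1 h2, rfl⟩
    · exact le_inf ((H.focalSubgroup_le_commutator).trans (Abelianization.commutator_subset_ker _))
        H.focalSubgroup_le
  have heq : H.focalSubgroup = commutator G ⊓ H :=
    le_antisymm (le_inf H.focalSubgroup_le_commutator H.focalSubgroup_le)
      ((inf_le_inf_right H (Abelianization.commutator_subset_ker H.transferFocal)).trans hker.le)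
  refine ⟨heq, H.transferFocal.ker, MonoidHom.normal_ker _, hker.trans heq, ?_⟩
  rw [eq_top_iff]
  intro g _
  obtain ⟨q, hq⟩ := (Nat.Coprime.pow_left_bijective hc).2 (H.transferFocal g)
  obtain ⟨x, rfl⟩ := QuotientGroup.mk'_surjective _ q
  have h1 : g * (x : G)⁻¹ ∈ H.transferFocal.ker := by
    rw [MonoidHom.mem_ker, map_mul, map_inv, Subgroup.transferFocal_eq_pow, mul_inv_eq_one]
    exact hq.symm
  simpa using mul_mem (Subgroup.mem_sup_left (T := H) h1) (Subgroup.mem_sup_right x.2)

/-- One step of the focal series. -/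
theorem focal_step [Finite G] {H K N : Subgroup G} (hHall : (Nat.card H).Coprime H.index) (hN : N.Normal)
    (hNH : N ⊓ H = K) (htop : N ⊔ H = ⊤) :
    ∃ N' : Subgroup G, N'.Normal ∧ N' ⊓ H = K.focalSubgroup ∧ N' ⊔ H = ⊤ := by
  have hKN : K ≤ N := hNH ▸ inf_le_left
  have hKH : K ≤ H := hNH ▸ inf_le_right
  have hHK : H ≤ Subgroup.normalizer (K : Set G) := by
    rw [← hNH]
    exact (le_inf (Subgroup.normalizer_eq_top (H := N) ▸ le_top) Subgroup.le_normalizer).trans
      Subgroup.inf_normalizer_le_normalizer_inf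
  set K' := K.subgroupOf N with hK'
  -- the index of `K` in `N` is that of `H`
  have hidx : K'.index = H.index := by
    have h1 := Subgroup.card_mul_index K'
    have h2 := Subgroup.card_mul_index H
    rw [Nat.card_congr (Subgroup.subgroupOfEquivOfLe hKN).toEquiv] at h1
    have h3 : Nat.card (N ⊔ H : Subgroup G) * Nat.card (N ⊓ H : Subgroup G) = Nat.card N * Nat.card H := by
      have h4 := Subgroup.card_mul_index (N.subgroupOf H)
      have h5 : (N.subgroupOf H).index = N.index := by
        show N.relIndex H = N.index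
        rw [← Subgroup.relIndex_sup_right, sup_comm, htop, Subgroup.relIndex_top_right]
      rw [h5, ← Subgroup.card_map_of_injective H.subtype_injective, Subgroup.subgroupOf_map_subtype] at h4
      rw [htop, Subgroup.card_top, ← Subgroup.card_mul_index N, ← h4]
      ring
    rw [htop, Subgroup.card_top, hNH, ← h2, ← h1] at h3
    have h6 : Nat.card H * Nat.card K * H.index = Nat.card H * Nat.card K * K'.index := by
      rw [mul_assoc, mul_comm (Nat.card K) H.index, ← mul_assoc, h3]; ring
    exact (Nat.eq_of_mul_eq_mul_left (Nat.mul_pos Nat.card_pos Nat.card_pos) h6).symm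
  set M : Subgroup N := Subgroup.closure {g : N | (orderOf g).Coprime (Nat.card H)} with hM
  have hMchar : M.Characteristic := Subgroup.characteristic_iff_map_le.2 fun φ => by
    rw [hM, MonoidHom.map_closure, Subgroup.closure_le]
    rintro _ ⟨g, hg, rfl⟩
    refine Subgroup.subset_closure ?_
    show (orderOf (φ g)).Coprime _
    rwa [MulEquiv.orderOf_eq]
  have hM0n : (M.map N.subtype).Normal := ConjAct.normal_of_characteristic_of_normal
  set M0 := M.map N.subtype with hM0
  have hcK : (Nat.card K').Coprime K'.index := by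
    rw [hidx, Nat.card_congr (Subgroup.subgroupOfEquivOfLe hKN).toEquiv]
    exact hHall.coprime_dvd_left (Subgroup.card_dvd_of_le hKH)
  have hMker : M ≤ K'.transferFocal.ker := by
    rw [hM, Subgroup.closure_le]
    intro g (hg : (orderOf g).Coprime (Nat.card H))
    refine orderOf_eq_one_iff.1 (Nat.eq_one_of_dvd_coprimes hg (orderOf_map_dvd K'.transferFocal g)
      ((orderOf_dvd_natCard _).trans ?_))
    refine (Subgroup.card_quotient_dvd_card _).trans ?_
    rw [Nat.card_congr (Subgroup.subgroupOfEquivOfLe hKN).toEquiv]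
    exact Subgroup.card_dvd_of_le hKH
  -- `M₀ ∩ K` lies in the focal subgroup
  have hMK : ∀ x ∈ M0, x ∈ K → x ∈ K.focalSubgroup := by
    rintro _ ⟨x, hx, rfl⟩ hxK
    have h1 := Subgroup.transferFocal_eq_pow K' ⟨x, hxK⟩
    rw [MonoidHom.mem_ker.1 (hMker hx)] at h1
    have h2 := (Nat.Coprime.pow_left_bijective
      (hcK.coprime_dvd_left (Subgroup.card_quotient_dvd_card K'.focalSubgroupOf))).1
        (h1.symm.trans (one_pow K'.index).symm)
    have h3 : x ∈ K'.focalSubgroup := by
      rw [← Subgroup.map_focalSubgroupOf K']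
      exact ⟨⟨x, hxK⟩, (QuotientGroup.eq_one_iff _).1 h2, rfl⟩
    have h4 : K'.focalSubgroup ≤ K.focalSubgroup.subgroupOf N := focalSubgroup_le_of_forall fun y hy g hg =>
      (mem_focalSubgroup (g := (g : G)) hy hg : (y : G) * ((g : G) * (y : G)⁻¹ * (g : G)⁻¹) ∈ K.focalSubgroup)
    exact h4 h3
  -- `M₀ K = N`
  have hMKtop : M ⊔ K' = ⊤ := by
    rw [← Subgroup.index_eq_one]
    refine Nat.eq_one_of_dvd_coprimes ?_ (Subgroup.index_dvd_of_le (le_sup_left : M ≤ M ⊔ K'))
      (Subgroup.index_dvd_of_le (le_sup_right : K' ≤ M ⊔ K'))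
    rw [hidx]
    refine Nat.coprime_of_dvd fun q hq hqM hqH => ?_
    have : Fact q.Prime := ⟨hq⟩
    rw [Subgroup.index_eq_card] at hqM
    obtain ⟨y, hy⟩ := exists_prime_orderOf_dvd_card' q hqM
    obtain ⟨g, rfl⟩ := QuotientGroup.mk'_surjective M y
    obtain ⟨j, m, hm, hjm⟩ := (orderOf g).exists_eq_pow_mul_and_not_dvd (orderOf_pos g).ne' q hq.ne_one
    have hgm : g ^ m ∈ M := by
      refine Subgroup.subset_closure ?_
      show (orderOf (g ^ m)).Coprime (Nat.card H)
      have h1 : orderOf (g ^ m) ∣ q ^ j := orderOf_dvd_of_pow_eq_one (by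
        rw [← pow_mul, mul_comm, ← hjm, pow_orderOf_eq_one])
      refine Nat.Coprime.coprime_dvd_left h1 (Nat.Coprime.pow_left j ?_)
      exact (hq.coprime_iff_not_dvd.2 fun hd => hq.one_lt.ne' (Nat.eq_one_of_dvd_coprimes hHall hd hqH))
    refine hm (hy ▸ orderOf_dvd_of_pow_eq_one ?_)
    rw [← map_pow]
    exact (QuotientGroup.eq_one_iff _).2 hgm
  have hN0 : M0 ⊔ K = N := by
    have h := congrArg (Subgroup.map N.subtype) hMKtop
    rwa [Subgroup.map_sup, ← MonoidHom.range_eq_map, Subgroup.range_subtype, hK', Subgroup.subgroupOf_map_subtype,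
      inf_eq_left.2 hKN] at h
  have hfK : K.focalSubgroup ≤ K := K.focalSubgroup_le
  refine ⟨M0 ⊔ K.focalSubgroup, ?_, ?_, ?_⟩
  · rw [← Subgroup.normalizer_eq_top_iff, eq_top_iff, ← htop, ← hN0]
    refine sup_le (sup_le (fun m hm => ?_) ?_) ?_
    · exact Subgroup.le_normalizer (Subgroup.mem_sup_left hm)
    · intro a ha
      rw [Subgroup.mem_normalizer_iff_map_conj_eq, Subgroup.map_sup,
        Subgroup.mem_normalizer_iff_map_conj_eq.1 (show a ∈ Subgroup.normalizer (M0 : Set G) by
          rw [Subgroup.normalizer_eq_top]; trivial),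
        Subgroup.mem_normalizer_iff_map_conj_eq.1 (le_normalizer_focal Subgroup.le_normalizer ha)]
    · intro a ha
      rw [Subgroup.mem_normalizer_iff_map_conj_eq, Subgroup.map_sup,
        Subgroup.mem_normalizer_iff_map_conj_eq.1 (show a ∈ Subgroup.normalizer (M0 : Set G) by
          rw [Subgroup.normalizer_eq_top]; trivial),
        Subgroup.mem_normalizer_iff_map_conj_eq.1 (le_normalizer_focal hHK ha)]
  · refine le_antisymm ?_ (le_inf le_sup_right (hfK.trans hKH))
    rintro x ⟨hx, hxH⟩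
    obtain ⟨m, hm, k, hk, rfl⟩ := Subgroup.mem_sup_of_normal_left.1 hx
    have hmH : m ∈ H := (H.mul_mem_cancel_right (hKH (hfK hk))).1 hxH
    have hmK : m ∈ K := hNH ▸ ⟨Subgroup.map_subtype_le _ hm, hmH⟩
    exact mul_mem (hMK m hm hmK) hk
  · rw [eq_top_iff, ← htop, ← hN0]
    exact sup_le (sup_le (le_sup_left.trans le_sup_left) (hKH.trans le_sup_right)) le_sup_right

/-- If the iterated focal subgroups of a Hall subgroup reach `1` it has a normal complement. -/
theorem exists_complement_of_focal_series [Finite G] (H : Subgroup G) (hHall : (Nat.card H).Coprime H.index) (n : ℕ)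
    (hfoc : (fun K : Subgroup G => Subgroup.focalSubgroup K)^[n] H = ⊥) :
    ∃ N : Subgroup G, N.Normal ∧ Subgroup.IsComplement' N H := by
  have key : ∀ i, ∃ N : Subgroup G, N.Normal ∧
      N ⊓ H = (fun K : Subgroup G => Subgroup.focalSubgroup K)^[i] H ∧ N ⊔ H = ⊤ := by
    intro i
    induction i with
    | zero => exact ⟨⊤, inferInstance, top_inf_eq H, top_sup_eq H⟩
    | succ i ih =>
      obtain ⟨N, hN, h1, h2⟩ := ih
      rw [Function.iterate_succ_apply']
      exact focal_step hHall hN h1 h2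
  obtain ⟨N, hN, h1, h2⟩ := key n
  refine ⟨N, hN, Subgroup.isComplement'_of_disjoint_and_mul_eq_univ (disjoint_iff.2 (h1.trans hfoc)) ?_⟩
  rw [← Subgroup.normal_mul, h2]
  exact Subgroup.coe_top

end CfsgLib.Transfer
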